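import Cfsg.Agent.H495.Sq.Large
import Cfsg.Agent.H903.Ore.Baby

/-!
# The Baby Monster: products of two squares in the centralizer of a 2B involution (S2453, helper495)

`OddProd r L` : every `l ≠ 1` in `L` is `c₁ c₂` with `c₁` of order `r` and `c₂` of odd order (for `Co₂`, `r = 23`:
`l = [a, b]` with `a` of order 23).
-/

set_option autoImplicit false

namespace Cfsg.Agent.H495.Sq.Baby

open Cfsg Cfsg.Agent.BabyM Cfsg.Agent.BabyM.Model Cfsg.Agent.BabyU.ClosModel Cfsg.Agent.BabyU.ClosLane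
open Cfsg.Agent.H134.Sq Cfsg.Agent.H495.Sq.Large
open Cfsg.Agent.H903.Ore.Large (ar_23_22)
open Cfsg.Agent.H903.Ore.Baby (exists_y card_PP')

universe u

/-- `l` is a product of an element of order `r` and an element of odd order -/
def OP (r : ℕ) {L : Type*} [Group L] (l : L) : Prop := ∃ c₁ c₂ : L, l = c₁ * c₂ ∧ orderOf c₁ = r ∧ Odd (orderOf c₂)

theorem OP.map {r : ℕ} {L L' : Type*} [Group L] [Group L'] (f : L ≃* L') {l : L} (h : OP r l) : OP r (f l) := by
  obtain ⟨c₁, c₂, rfl, h1, h2⟩ := h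
  exact ⟨f c₁, f c₂, map_mul f _ _, by rw [MulEquiv.orderOf_eq, h1], by rwa [MulEquiv.orderOf_eq]⟩

/-- a commutator with an entry of odd order `r` -/
theorem OP.of_comm {r : ℕ} (hr : Odd r) {L : Type*} [Group L] {l a b : L} (e : l = a * b * a⁻¹ * b⁻¹)
    (ha : orderOf a = r) : OP r l := by
  refine ⟨a, b * a⁻¹ * b⁻¹, by rw [e]; group, ha, ?_⟩
  rw [← MulAut.conj_apply, MulEquiv.orderOf_eq, orderOf_inv, ha]
  exact hr

/-- every nontrivial element of `Co₂` -/
def Odd23 : Prop := ∀ l : Spor.Co2, l ≠ 1 → OP 23 l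

/-- every nontrivial 2-element of `Co₂` -/
def Odd23Two : Prop := ∀ l : Spor.Co2, l ≠ 1 → (∃ k : ℕ, orderOf l = 2 ^ k) → OP 23 l

/-- **The elements of `C(z)`**, for the model. -/
theorem cent_model (hO : Odd23) (g : Inst.M.G) (hg : g * zz A = zz A * g) : IsP 2 g := by
  have := A.finite_G
  obtain ⟨π, hs, hk⟩ := KFacts.Baby.Inst.quot A
  obtain ⟨e⟩ := Cfsg.Agent.Schreier.CoTwoStab.exists_equiv _ GroupInst.dt_l₀
  refine isP_cent (KFacts.Baby.Inst.large A) hs hk (r := 23) (n := 22) (by norm_num) (by decide) card_PP' (by norm_num)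
    ar_23_22 exists_y ⟨g, Subgroup.mem_centralizer_singleton_iff.2 hg⟩ fun h1 => ?_
  have h2 := OP.map e.symm (hO (e (π ⟨g, Subgroup.mem_centralizer_singleton_iff.2 hg⟩)) fun h => h1 (e.injective (by
    rw [h, map_one])))
  rwa [e.symm_apply_apply] at h2

/-- **The 2-elements**, for the model. -/
theorem two_model (hO : Odd23Two) {g : Inst.M.G} (hg : ∃ k : ℕ, orderOf g = 2 ^ k) : IsP 2 g := by
  have := A.finite_G
  obtain ⟨π, hs, hk⟩ := KFacts.Baby.Inst.quot A
  obtain ⟨e⟩ := Cfsg.Agent.Schreier.CoTwoStab.exists_equiv _ GroupInst.dt_l₀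
  refine isP_two (KFacts.Baby.Inst.large A) hs hk (r := 23) (n := 22) (by norm_num) (by decide) card_PP' (by norm_num)
    ar_23_22 exists_y (KFacts.Baby.Inst.odd_index A) (fun l h1 h2 => ?_) hg
  have h3 := OP.map e.symm (hO (e l) (fun h => h1 (e.injective (by rw [h, map_one]))) (by
    obtain ⟨k, hk⟩ := h2
    exact ⟨k, by rw [MulEquiv.orderOf_eq, hk]⟩))
  rwa [e.symm_apply_apply] at h3

section

variable {G : Type u} [Group G]

/-- **Every 2-element of the Baby Monster is a product of two squares.** -/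
theorem two_B (h : Spor.IsoB G) (hO : Odd23Two) {g : G} (hg : ∃ k : ℕ, orderOf g = 2 ^ k) : IsP 2 g := by
  obtain ⟨f⟩ := KFacts.Baby.RowB.exists_iso h
  have h1 : IsP 2 (f.symm g) := two_model hO (by
    obtain ⟨k, hk⟩ := hg
    exact ⟨k, by rw [MulEquiv.orderOf_eq, hk]⟩)
  have h2 := h1.map f.toMonoidHom
  change IsP 2 (f (f.symm g)) at h2
  rwa [f.apply_symm_apply] at h2

end

end Cfsg.Agent.H495.Sq.Baby
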