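import Cfsg.Agent.H903.Ore.Large
import Cfsg.Agent.H134.Sq.Tools

/-!
# Products of two squares in `C(z)`, `Q = O₂(C(z))` extraspecial (S2453, helper495)

The analogue of `H903.Ore.Large` for `H134.Sq.IsP 2`.

* `isP_out` : `π g = c₁ c₂ ≠ 1`, `c₁` of prime order `r` (fixed point free), `c₂` of odd order;
* `isP_in` : the elements of `Q`; `isP_cent`, `isP_two`.
-/

set_option autoImplicit false

namespace Cfsg.Agent.H495.Sq.Large

open Cfsg.Agent.Co2Type.Quad (Large)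
open Cfsg.Agent.H6.ORE Cfsg.Agent.H134.Sq
open Cfsg.Agent.H903.Ore.Large (Ar fpf finQ act_fix)

universe u

variable {K : Type u} [Group K] {Q : Subgroup K} {z : K} {L : Type*} [Group L] {π : CZ z →* L}

/-- an element of order `r` modulo `Q` is fixed point free on `Q / ⟨z⟩` -/
theorem fix_of_order [Finite Q] (h : Large Q z) (hk : ∀ c, π c = 1 ↔ (c : K) ∈ Q)
    {r n : ℕ} (hr : r.Prime) (hodd : Odd r) (hcard : Nat.card Q = 2 ^ (n + 1)) (har : Ar r n) {a : CZ z}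
    (ha : orderOf (π a) = r) :
    ∀ x ∈ Q.subgroupOf (CZ z), (a * x * a⁻¹ = x ∨ a * x * a⁻¹ = x * zC z) → x = 1 ∨ x = zC z := by
  intro x hx hxa
  have hxQ : (x : K) ∈ Q := hx
  have hd1 : ((a ^ r : CZ z) : K) ∈ Q := by
    rw [← hk, map_pow, ← ha, pow_orderOf_eq_one]
  have hd2 : (a : K) ∉ Q := by
    intro hdQ
    rw [← hk] at hdQ
    rw [hdQ, orderOf_one] at ha
    exact hr.one_lt.ne ha
  have h3 := fpf h hr hodd hcard har hd1 hd2
    (act_fix h a (x := ⟨x, hxQ⟩) (hxa.imp (congrArg Subtype.val) (congrArg Subtype.val)))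
  exact (h.pr_eq_zero.1 h3).imp (fun e => Subtype.ext e) (fun e => Subtype.ext e)

/-- **Elements outside `Q`.** -/
theorem isP_out [Finite Q] [Finite (CZ z)] (h : Large Q z) (hs : Function.Surjective π)
    (hk : ∀ c, π c = 1 ↔ (c : K) ∈ Q)
    {r n : ℕ} (hr : r.Prime) (hodd : Odd r) (hcard : Nat.card Q = 2 ^ (n + 1)) (har : Ar r n) {g : CZ z}
    (hg : π g ≠ 1) {c₁ c₂ : L} (e : π g = c₁ * c₂) (h1 : orderOf c₁ = r) (h2 : Odd (orderOf c₂)) :
    IsP 2 (g : K) := by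
  have hE := es_of_large h
  have hfin : Finite (Q.subgroupOf (CZ z)) := finQ
  obtain ⟨a, rfl⟩ := hs c₁
  obtain ⟨b, rfl⟩ := hs c₂
  obtain ⟨i, ha, ha'⟩ := exists_odd_lift π (c := a) (by rw [h1]; exact hodd)
  obtain ⟨j, hb, hb'⟩ := exists_odd_lift π (c := b) h2
  have hgQ : (g : K) ∉ Q := fun hh => hg ((hk g).2 hh)
  have key : IsP 2 g := by
    refine isP_step_odd hE (c₁ := a ^ i) (c₂ := b ^ j) ha hb
      (fix_of_order h hk hr hodd hcard har (by rw [ha', h1])) ?_ ?_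
    · show ((g * (a ^ i * b ^ j)⁻¹ : CZ z) : K) ∈ Q
      rw [← hk, map_mul, map_inv, map_mul, ha', hb', e, mul_inv_cancel]
    · by_contra hno
      push Not at hno
      apply hgQ
      apply Cfsg.Agent.KFacts.LargeO2.mem_of_triv h (Subgroup.mem_centralizer_singleton_iff.1 g.2)
      intro y hy
      have hyC : y ∈ CZ z := Subgroup.mem_centralizer_singleton_iff.2 (h.comm_z y hy)
      exact (hno ⟨y, hyC⟩ hy).imp (congrArg Subtype.val) (congrArg Subtype.val)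
  exact key.map (CZ z).subtype

/-- **Elements of `Q`.** -/
theorem isP_in [Finite Q] [Finite (CZ z)] (h : Large Q z) (hs : Function.Surjective π)
    (hk : ∀ c, π c = 1 ↔ (c : K) ∈ Q)
    {r n : ℕ} (hr : r.Prime) (hodd : Odd r) (hcard : Nat.card Q = 2 ^ (n + 1)) (hn : 0 < n) (har : Ar r n)
    {y : L} (hyr : orderOf y = r) {q : K} (hq : q ∈ Q) : IsP 2 q := by
  have hE := es_of_large h
  have hfin : Finite (Q.subgroupOf (CZ z)) := finQ
  obtain ⟨a, rfl⟩ := hs y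
  obtain ⟨i, ha, ha'⟩ := exists_odd_lift π (c := a) (by rw [hyr]; exact hodd)
  have hqC : q ∈ CZ z := Subgroup.mem_centralizer_singleton_iff.2 (h.comm_z q hq)
  have h2 : IsP 2 (⟨q, hqC⟩ : CZ z) := by
    refine isP_mem_extra hE ha (fix_of_order h hk hr hodd hcard har (by rw [ha', hyr])) ?_ hq
    by_contra hno
    push Not at hno
    have h3 : ∀ x : Q, (x : K) = 1 ∨ (x : K) = z := by
      intro x
      have hxC : (x : K) ∈ CZ z := Subgroup.mem_centralizer_singleton_iff.2 (h.comm_z x x.2)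
      exact (hno ⟨x, hxC⟩ x.2).imp (congrArg Subtype.val) (congrArg Subtype.val)
    classical
    have h4 : Nat.card Q ≤ Nat.card Bool := by
      refine Nat.card_le_card_of_injective (fun x => decide ((x : K) = 1)) ?_
      intro x y hxy
      have h5 : ((x : K) = 1) ↔ ((y : K) = 1) := by simpa using hxy
      apply Subtype.ext
      rcases h3 x with hx | hx
      · rw [hx, h5.1 hx]
      · rcases h3 y with hy | hy
        · rw [hy, h5.2 hy]
        · rw [hx, hy]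
    have h6 : Nat.card Bool = 2 := by simp
    have h7 : 2 < Nat.card Q := by
      rw [hcard]
      calc 2 = 2 ^ 1 := rfl
        _ < 2 ^ (n + 1) := Nat.pow_lt_pow_right (by norm_num) (by omega)
    omega
  exact h2.map (CZ z).subtype

/-- **All elements of `C(z)`.** -/
theorem isP_cent [Finite Q] [Finite (CZ z)] (h : Large Q z) (hs : Function.Surjective π)
    (hk : ∀ c, π c = 1 ↔ (c : K) ∈ Q)
    {r n : ℕ} (hr : r.Prime) (hodd : Odd r) (hcard : Nat.card Q = 2 ^ (n + 1)) (hn : 0 < n) (har : Ar r n)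
    (hy : ∃ y : L, orderOf y = r) (g : CZ z)
    (hO : π g ≠ 1 → ∃ c₁ c₂ : L, π g = c₁ * c₂ ∧ orderOf c₁ = r ∧ Odd (orderOf c₂)) :
    IsP 2 (g : K) := by
  by_cases h1 : π g = 1
  · obtain ⟨y, hy⟩ := hy
    exact isP_in h hs hk hr hodd hcard hn har hy ((hk g).1 h1)
  · obtain ⟨c₁, c₂, e, h3, h4⟩ := hO h1
    exact isP_out h hs hk hr hodd hcard har h1 e h3 h4

/-- **The 2-elements.** -/
theorem isP_two [Finite K] (h : Large Q z) (hs : Function.Surjective π) (hk : ∀ c, π c = 1 ↔ (c : K) ∈ Q)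
    {r n : ℕ} (hr : r.Prime) (hodd : Odd r) (hcard : Nat.card Q = 2 ^ (n + 1)) (hn : 0 < n) (har : Ar r n)
    (hy : ∃ y : L, orderOf y = r) (hi : Odd (CZ z).index)
    (hO : ∀ l : L, l ≠ 1 → (∃ k : ℕ, orderOf l = 2 ^ k) → ∃ c₁ c₂ : L, l = c₁ * c₂ ∧ orderOf c₁ = r ∧ Odd (orderOf c₂))
    {g : K} (hg : ∃ k : ℕ, orderOf g = 2 ^ k) : IsP 2 g := by
  obtain ⟨u, hu⟩ := exists_conj_mem hi hg
  refine IsP.of_conj u ?_
  refine isP_cent h hs hk hr hodd hcard hn har hy ⟨u * g * u⁻¹, hu⟩ fun h1 => hO _ h1 ?_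
  obtain ⟨k, hk'⟩ := hg
  have ho : orderOf (⟨u * g * u⁻¹, hu⟩ : CZ z) = 2 ^ k := by
    rw [← Subgroup.orderOf_coe, ← hk']
    show orderOf (u * g * u⁻¹) = orderOf g
    rw [show u * g * u⁻¹ = MulAut.conj u g from rfl, MulEquiv.orderOf_eq]
  have h2 : orderOf (π ⟨u * g * u⁻¹, hu⟩) ∣ 2 ^ k := by rw [← ho]; exact orderOf_map_dvd π _
  obtain ⟨j, -, hj⟩ := (Nat.dvd_prime_pow Nat.prime_two).1 h2
  exact ⟨j, hj⟩

end Cfsg.Agent.H495.Sq.Large
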